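import Cfsg.Agent.H995.U33.Pair

/-!
# S5525: `f₀` and `y₀` are not conjugate (helper841)
-/

set_option autoImplicit false

namespace Cfsg.Agent.H841.U33

open Subgroup Cfsg.Agent.H819.U33

theorem card_centralizer_eq {K : Type*} [Group K] {a b : K} (h : IsConj a b) :
    Nat.card (centralizer ({a} : Set K)) = Nat.card (centralizer ({b} : Set K)) := by
  obtain ⟨c, rfl⟩ := isConj_iff.mp h
  have e : (centralizer ({a} : Set K)).map (MulAut.conj c).toMonoidHom = centralizer ({c * a * c⁻¹} : Set K) := by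
    ext x
    rw [mem_map, mem_centralizer_singleton_iff]
    constructor
    · rintro ⟨y, hy, rfl⟩
      rw [mem_centralizer_singleton_iff] at hy
      show c * y * c⁻¹ * (c * a * c⁻¹) = c * a * c⁻¹ * (c * y * c⁻¹)
      calc c * y * c⁻¹ * (c * a * c⁻¹) = c * (y * a) * c⁻¹ := by group
        _ = c * a * c⁻¹ * (c * y * c⁻¹) := by rw [hy]; group
    · intro hx
      refine ⟨c⁻¹ * x * c, ?_, ?_⟩
      · rw [mem_centralizer_singleton_iff]
        calc c⁻¹ * x * c * a = c⁻¹ * (x * (c * a * c⁻¹)) * c := by group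
          _ = a * (c⁻¹ * x * c) := by rw [hx]; group
      · show c * (c⁻¹ * x * c) * c⁻¹ = x
        group
  rw [← e]
  exact Nat.card_congr ((centralizer ({a} : Set K)).equivMapOfInjective _ (MulAut.conj c).injective).toEquiv

theorem XX_le : XX ≤ centralizer ({g wf} : Set G) := by
  intro x hx
  unfold XX at hx
  rw [mem_centralizer_iff] at hx
  have h1 : g wd1 * x = x * g wd1 := hx _ (Set.mem_insert _ _)
  have h2 : g wd2 * x = x * g wd2 := hx _ (Set.mem_insert_of_mem _ rfl)
  rw [mem_centralizer_singleton_iff, ← d1_mul_d2, ← mul_assoc, ← h1, mul_assoc, ← h2, mul_assoc]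

/-- **`f₀` and `y₀` are not conjugate.** -/
theorem not_isConj_of {y1 : G} (h1 : IsConj (g wy) y1)
    (h : Nat.card (centralizer ({y1} : Set G)) ≤ 65303470080) : ¬ IsConj (g wf) (g wy) := by
  intro h2
  have h3 := card_centralizer_eq (h2.trans h1)
  rw [← h3] at h
  have h4 : Nat.card XX ∣ Nat.card (centralizer ({g wf} : Set G)) := card_dvd_of_le XX_le
  rw [card_XX] at h4
  have h5 : 0 < Nat.card (centralizer ({g wf} : Set G)) := by
    have := BabyM.Instance.all.finite_G
    exact Nat.card_pos
  have h6 := Nat.le_of_dvd h5 h4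
  omega

end Cfsg.Agent.H841.U33
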